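import Cfsg.Agent.H6.Co3.P.K
import Cfsg.Agent.H6.Ab

set_option autoImplicit false
set_option maxRecDepth 100000

namespace Cfsg.Co3G

open Cfsg.H6 Cfsg.H6.Co3.P

/-- The inverse table of the letters of the model. -/
def nv : ℕ := 13624351749991550511698068748508164879753244925903185760754073106949632754176

theorem hv : Good ev nv := hev

/-- The inverse table with a variable letter. -/
def nv2 : ℕ := nv + 33 * 256 ^ 32 + 32 * 256 ^ 33

noncomputable def eq1 (w : List ℕ) : Bool := fixB img 32 bs w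

noncomputable def ne1 (w : List ℕ) : Bool :=
  inR 32 w && bs.any fun p => !Nat.beq (trF img w p) p

noncomputable def eqB (u w : List ℕ) : Bool := eq1 (u ++ invW nv w)

noncomputable def neB (u w : List ℕ) : Bool := ne1 (u ++ invW nv w)

theorem eq1_spec {w : List ℕ} (h : eq1 w = true) : evL ev w = 1 := ora w h

theorem ne1_spec {w : List ℕ} (h : ne1 w = true) : evL ev w ≠ 1 := by
  simp only [ne1, Bool.and_eq_true, List.any_eq_true] at h
  obtain ⟨h1, p, hp, h2⟩ := h
  refine hφ.ne_one (p := p) ?_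
  rw [h1, h2, Nat.blt_eq.mpr (lb.2 p hp)]
  rfl

theorem eqB_spec {u w : List ℕ} (h : eqB u w = true) : evL ev u = evL ev w := by
  have := eq1_spec h
  rwa [evL_append, evL_invW hv, mul_inv_eq_one] at this

theorem neB_spec {u w : List ℕ} (h : neB u w = true) : evL ev u ≠ evL ev w := by
  have := ne1_spec h
  rwa [evL_append, evL_invW hv, Ne, mul_inv_eq_one] at this

noncomputable def kyN (w : List ℕ) : ℕ :=
  bs.foldr (fun b acc => Nat.add (trF img w b) (Nat.mul 1383 acc)) 0

/-- Enumeration of a point stabiliser. -/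
noncomputable def enB (fb : List ℕ) (wd : ℕ → List ℕ) (N i : ℕ) : Bool :=
  fixB img 32 fb (wd i) &&
    (Nat.beq (i + 1) N || Nat.blt (kyN (wd i)) (kyN (wd (i + 1))))

theorem enum {fb : List ℕ} (hb : ltB 1383 fb = true) {N : ℕ} (hU : UB (fixS φ fb) N)
    {wd : ℕ → List ℕ} (h : ∀ i, 0 ≤ i → i < N → enB fb wd N i = true) :
    Nat.card (fixS φ fb) = N ∧ ∀ x ∈ fixS φ fb, ∃ i < N, evL ev (wd i) = x := by
  classical
  simp only [enB, Bool.and_eq_true, Bool.or_eq_true, Nat.beq_eq, Nat.blt_eq] at h
  have a3 : ∀ i < N, inR 32 (wd i) = true := fun i hi => by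
    have := (h i (Nat.zero_le _) hi).1
    simp only [fixB, Bool.and_eq_true] at this
    exact this.1
  have mono : ∀ i j, i < j → j < N → kyN (wd i) < kyN (wd j) := by
    intro i j hij
    induction j, hij using Nat.le_induction with
    | base => exact fun hj => ((h i (Nat.zero_le _) (by omega)).2.resolve_left (by omega))
    | succ j _ ih =>
      exact fun hj => (ih (by omega)).trans ((h j (Nat.zero_le _) (by omega)).2.resolve_left (by omega))
  have key : ∀ i < N, ∀ j < N, evL ev (wd i) = evL ev (wd j) →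
      kyN (wd i) = kyN (wd j) := fun i hi j hj e => by
    unfold kyN
    refine List.foldr_ext _ _ _ fun b hb acc => ?_
    rw [← (hφ.trF (a3 i hi) (lb.2 b hb)).1, ← (hφ.trF (a3 j hj) (lb.2 b hb)).1, e]
  have hinj : Set.InjOn (fun i => evL ev (wd i)) (Finset.range N : Set ℕ) := by
    intro i hi j hj e
    have hi' : i < N := by simpa using hi
    have hj' : j < N := by simpa using hj
    have := key i hi' j hj' e
    rcases lt_trichotomy i j with c | c | c
    · exact absurd this (mono i j c hj').ne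
    · exact c
    · exact absurd this (mono j i c hi').ne'
  have := hU.1
  have hc : ((Finset.range N).image fun i => evL ev (wd i)).card = N := by
    rw [Finset.card_image_of_injOn hinj, Finset.card_range]
  have hs : (((Finset.range N).image fun i => evL ev (wd i) : Finset Grp) : Set Grp) = fixS φ fb := by
    refine Set.eq_of_subset_of_ncard_le (fun y hy => ?_) ?_ (Set.toFinite _)
    · obtain ⟨i, hi, rfl⟩ := Finset.mem_image.mp (Finset.mem_coe.mp hy)
      exact hφ.mem_fixS (ltB_spec hb) (h i (Nat.zero_le _) (Finset.mem_range.mp hi)).1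
    · rw [Set.ncard_coe_finset, hc, ← Nat.card_coe_set_eq]
      exact hU.2
  refine ⟨?_, fun x hx => ?_⟩
  · have : Nat.card (fixS φ fb) = ((fixS φ fb : Subgroup Grp) : Set Grp).ncard :=
      Nat.card_coe_set_eq _
    rw [this, ← hs, Set.ncard_coe_finset, hc]
  · have h1 : x ∈ (((Finset.range N).image fun i => evL ev (wd i) : Finset Grp) : Set Grp) := hs ▸ hx
    obtain ⟨i, hi, e⟩ := Finset.mem_image.mp (Finset.mem_coe.mp h1)
    exact ⟨i, Finset.mem_range.mp hi, e⟩

/-- Words packed in blocks of sixty-four, twelve letters each. -/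
noncomputable def wdP (get : ℕ → ℕ) (i : ℕ) : List ℕ :=
  unpack 12 (Nat.land (Nat.shiftRight (get (Nat.shiftRight i 6)) (Nat.mul (Nat.land i 63) 96))
    79228162514264337593543950335) []

/-- Letters with a variable. -/
noncomputable def evX (x : Grp) (l : ℕ) : Grp := if l = 32 then x else if l = 33 then x⁻¹ else ev l

theorem good_evX (x : Grp) : Good (evX x) nv2 := by
  refine ⟨by simp [evX, hv.zero], fun l => ?_⟩
  by_cases h : l < 34
  · have e : ∀ l < 34, (l = 32 ∧ invL nv2 l = 33) ∨ (l = 33 ∧ invL nv2 l = 32) ∨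
        (l ≠ 32 ∧ l ≠ 33 ∧ invL nv l ≠ 32 ∧ invL nv l ≠ 33 ∧ invL nv2 l = invL nv l) := by
      decide +kernel
    rcases e l h with ⟨rfl, e⟩ | ⟨rfl, e⟩ | ⟨a, b, c, d, e⟩
    · simp [evX, e]
    · simp [evX, e]
    · simp only [evX, e, a, b, c, d, if_false, hv.inv]
  · rw [invL_eq_zero (n := 34) (by decide +kernel) (by omega)]
    have : ev l = 1 := hv.eq_one (m := 32) (by decide +kernel) (by omega)
    simp [evX, hv.zero, this, show l ≠ 32 by omega, show l ≠ 33 by omega]

theorem evX_in (x : Grp) {u : List ℕ} (h : inR 32 u = true) : evL (evX x) u = evL ev u :=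
  evL_congr fun l hl => by
    have := (inR_spec h l hl).2
    simp [evX, show l ≠ 32 by omega, show l ≠ 33 by omega]

theorem evX_x (x : Grp) : evL (evX x) [32] = x := by simp [evL_singleton, evX]

/-- Substitution of a word for the variable. -/
def tm (w p : List ℕ) : List ℕ :=
  p.flatMap fun l => cond (Nat.beq l 32) w (cond (Nat.beq l 33) (invW nv w) [l])

theorem evL_tm (w : List ℕ) : ∀ p, evL ev (tm w p) = evL (evX (evL ev w)) p
  | [] => rfl
  | l :: p => by
    have ih := evL_tm w p
    unfold tm at ih ⊢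
    rw [List.flatMap_cons, evL_append, ih, evL_cons]
    congr 1
    by_cases h : l = 32
    · subst h; simp [evX]
    · by_cases h' : l = 33
      · subst h'
        exact (evL_invW hv w).trans (by simp [evX])
      · have a : Nat.beq l 32 = false := Bool.eq_false_iff.mpr fun e => h (Nat.eq_of_beq_eq_true e)
        have b : Nat.beq l 33 = false := Bool.eq_false_iff.mpr fun e => h' (Nat.eq_of_beq_eq_true e)
        simp [evX, h, h', a, b, evL_singleton]

noncomputable def passB (Hs : List (List ℕ)) (C : List (List ℕ × List ℕ)) (w : List ℕ) : Bool :=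
  (Hs.any fun p => ne1 (tm w p)) || C.any fun e => eqB (invW nv e.1 ++ w ++ e.1) e.2

theorem pass1 {Hs : List (List ℕ)} {C : List (List ℕ × List ℕ)} {w : List ℕ} {x : Grp}
    (h : passB Hs C w = true) (e : evL ev w = x) (hH : ∀ p ∈ Hs, evL (evX x) p = 1) :
    ∃ c ∈ C, (evL ev c.1)⁻¹ * x * evL ev c.1 = evL ev c.2 := by
  subst e
  simp only [passB, Bool.or_eq_true, List.any_eq_true] at h
  rcases h with ⟨p, hp, h⟩ | ⟨c, hc, h⟩
  · exact absurd ((evL_tm w p).trans (hH p hp)) (ne1_spec h)
  · have := eqB_spec h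
    rw [evL_append, evL_append, evL_invW hv] at this
    exact ⟨c, hc, this⟩

noncomputable def passQ (Hs : List (List ℕ)) (C : List (List ℕ × List ℕ)) (w : List ℕ) : Bool :=
  (Hs.any fun p => ne1 (tm w p)) || C.any fun e => eqB (invW nv e.1 ++ (w ++ w) ++ e.1) e.2

theorem passQ1 {Hs : List (List ℕ)} {C : List (List ℕ × List ℕ)} {w : List ℕ} {x : Grp}
    (h : passQ Hs C w = true) (e : evL ev w = x) (hH : ∀ p ∈ Hs, evL (evX x) p = 1) :
    ∃ c ∈ C, (evL ev c.1)⁻¹ * (x * x) * evL ev c.1 = evL ev c.2 := by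
  subst e
  simp only [passQ, Bool.or_eq_true, List.any_eq_true] at h
  rcases h with ⟨p, hp, h⟩ | ⟨c, hc, h⟩
  · exact absurd ((evL_tm w p).trans (hH p hp)) (ne1_spec h)
  · have := eqB_spec h
    rw [evL_append, evL_append, evL_append, evL_invW hv] at this
    exact ⟨c, hc, this⟩

/-- Conjugates of the second involution are given by points. -/
noncomputable def fxB (w : List ℕ) (U : List (List ℕ)) (p : ℕ) : Bool :=
  Nat.beq p 0 || !Nat.beq (trF img w p) p ||
    U.any fun u => inR 32 u && Nat.beq (trF img u 0) p && neB (invW nv u ++ [16] ++ u) w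

theorem comm_K {x : Grp} (hx : x ∈ fixS φ [0]) : Commute x (ev 16) := by
  have : gen ev KW ≤ Subgroup.centralizer {ev 16} := gen_le fun w hw => by
    have h : KW.all (fun w => eqB ([16] ++ w) (w ++ [16])) = true := by decide +kernel
    have := eqB_spec (List.all_eq_true.mp h w hw)
    rw [evL_append, evL_append, evL_singleton] at this
    exact Subgroup.mem_centralizer_singleton_iff.mpr this.symm
  exact Subgroup.mem_centralizer_singleton_iff.mp (this (stab hx))

theorem fix0 {w : List ℕ} {U : List (List ℕ)} (hw : inR 32 w = true)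
    (h : allR (fxB w U) 0 630 = true) {g : Grp} (hg : g⁻¹ * ev 16 * g = evL ev w) :
    g ∈ fixS φ [0] := by
  have hp : (φ g)⁻¹ 0 < 630 := by rw [← map_inv]; exact lt0 _
  have h0 : (φ (ev 16))⁻¹ 0 = 0 := by
    have : evL ev [16] ∈ fixS φ [0] := hφ.mem_fixS (by simp) (by decide +kernel)
    rw [evL_singleton] at this
    exact mem_fixS'.mp this 0 (by simp)
  have hf : trF img w ((φ g)⁻¹ 0) = (φ g)⁻¹ 0 := by
    rw [← (hφ0.trF hw hp).1, ← hg]
    simpa using h0
  have := allR_spec h _ (Nat.zero_le _) (by omega : (φ g)⁻¹ 0 < 0 + 630)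
  simp only [fxB, hf, Nat.beq_refl, Bool.not_true, Bool.or_false, Bool.or_eq_true, Nat.beq_eq,
    List.any_eq_true, Bool.and_eq_true] at this
  rcases this with h1 | ⟨u, _, ⟨h1, h2⟩, h3⟩
  · exact mem_fixS'.mpr fun b hb => by rw [List.mem_singleton.mp hb, h1]
  · exfalso
    have h4 : g * (evL ev u)⁻¹ ∈ fixS φ [0] := mem_fixS'.mpr fun b hb => by
      rw [List.mem_singleton.mp hb, map_mul, mul_inv_rev, map_inv, inv_inv, Equiv.Perm.mul_apply,
        ← h2, ← (hφ0.trF h1 (by norm_num)).1]
      simp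
    have h5 := (comm_K h4).eq
    apply neB_spec h3
    rw [evL_append, evL_append, evL_invW hv, evL_singleton, ← hg]
    calc (evL ev u)⁻¹ * ev 16 * evL ev u
        = g⁻¹ * (g * (evL ev u)⁻¹ * ev 16) * evL ev u := by group
      _ = g⁻¹ * ev 16 * g := by rw [h5]; group

theorem cen_t (x : Grp) : Commute x (ev 15) := by
  have : gen ev X ≤ Subgroup.centralizer {ev 15} := gen_le fun w hw => by
    have h : X.all (fun w => eqB ([15] ++ w) (w ++ [15])) = true := by decide +kernel
    have := eqB_spec (List.all_eq_true.mp h w hw)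
    rw [evL_append, evL_append, evL_singleton] at this
    exact Subgroup.mem_centralizer_singleton_iff.mpr this.symm
  rw [hX] at this
  exact Subgroup.mem_centralizer_singleton_iff.mp (this (Subgroup.mem_top x))

/-! ### Transport along an element of an overgroup -/

variable {G : Type*} [Group G] {θ : Grp →* G} {g : G}

/-- Conjugation by `g` maps `x` to `x'`. -/
def Tr (θ : Grp →* G) (g : G) (x x' : Grp) : Prop := g⁻¹ * θ x * g = θ x'

theorem Tr.one : Tr θ g 1 1 := by simp [Tr]

theorem Tr.mul {x x' y y' : Grp} (h : Tr θ g x x') (h' : Tr θ g y y') :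
    Tr θ g (x * y) (x' * y') := by
  unfold Tr at *
  rw [map_mul, map_mul, ← h, ← h']
  group

theorem Tr.inv {x x' : Grp} (h : Tr θ g x x') : Tr θ g x⁻¹ x'⁻¹ := by
  unfold Tr at *
  rw [map_inv, map_inv, ← h]
  group

theorem Tr.adj {x x' : Grp} (h : Tr θ g x x') (d : Grp) : Tr θ (g * θ d) x (d⁻¹ * x' * d) := by
  unfold Tr at *
  rw [map_mul, map_mul, map_inv, ← h]
  group

theorem Tr.adj' {x x' d : Grp} (h : Tr θ g x x') (c : Commute d x') : Tr θ (g * θ d) x x' := by
  have := h.adj d
  rwa [mul_assoc, ← c.eq, inv_mul_cancel_left] at this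

theorem Tr.uniq (hi : Function.Injective θ) {x y z : Grp} (h : Tr θ g x y) (h' : Tr θ g x z) :
    y = z := hi (h.symm.trans h')

theorem Tr.uniq' (hi : Function.Injective θ) {x y z : Grp} (h : Tr θ g y x) (h' : Tr θ g z x) :
    y = z := by
  have := h.trans h'.symm
  exact hi (by simpa using this)

/-- Lookup of the image of a letter. -/
def lk (dom : List (ℕ × List ℕ)) (l : ℕ) : List ℕ :=
  match dom.lookup l with
  | some w => w
  | none => invW nv2 ((dom.lookup (invL nv l)).getD [])

def okL (dom : List (ℕ × List ℕ)) (l : ℕ) : Bool :=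
  (dom.lookup l).isSome || (dom.lookup (invL nv l)).isSome

def sb (dom : List (ℕ × List ℕ)) (p : List ℕ) : List ℕ := p.flatMap (lk dom)

/-- The images of some letters are known. -/
def Dm (θ : Grp →* G) (g : G) (x : Grp) (dom : List (ℕ × List ℕ)) : Prop :=
  ∀ e ∈ dom, Tr θ g (ev e.1) (evL (evX x) e.2)

theorem mem_of_lookup {dom : List (ℕ × List ℕ)} {l : ℕ} {w : List ℕ} (h : dom.lookup l = some w) :
    (l, w) ∈ dom := by
  obtain ⟨l1, l2, e, _⟩ := List.lookup_eq_some_iff.mp h
  rw [e]
  simp

theorem Dm.lk {x : Grp} {dom : List (ℕ × List ℕ)} (h : Dm θ g x dom) {l : ℕ}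
    (hl : okL dom l = true) : Tr θ g (ev l) (evL (evX x) (lk dom l)) := by
  unfold Co3G.lk
  cases e : dom.lookup l with
  | some w => exact h _ (mem_of_lookup e)
  | none =>
    simp only [okL, e, Option.isSome_none, Bool.false_or] at hl
    obtain ⟨w, hw⟩ := Option.isSome_iff_exists.mp hl
    have := (h _ (mem_of_lookup hw)).inv
    simp only [hv.inv, inv_inv] at this
    simpa only [hw, Option.getD_some, evL_invW (good_evX x)] using this

theorem Dm.sb {x : Grp} {dom : List (ℕ × List ℕ)} (h : Dm θ g x dom) :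
    ∀ {p : List ℕ}, p.all (okL dom) = true → Tr θ g (evL ev p) (evL (evX x) (sb dom p))
  | [], _ => Tr.one
  | l :: p, hp => by
    rw [List.all_cons, Bool.and_eq_true] at hp
    have := (h.lk hp.1).mul (h.sb hp.2)
    unfold Co3G.sb at this ⊢
    rwa [List.flatMap_cons, evL_append, evL_cons]

theorem Dm.rel (hi : Function.Injective θ) {x : Grp} {dom : List (ℕ × List ℕ)} (h : Dm θ g x dom)
    {ps Hs : List (List ℕ)}
    (hc : ((ps.all fun p => p.all (okL dom) && eq1 p) && Hs == ps.map (Co3G.sb dom)) = true) :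
    ∀ p ∈ Hs, evL (evX x) p = 1 := by
  simp only [Bool.and_eq_true, List.all_eq_true, beq_iff_eq] at hc
  obtain ⟨h1, rfl⟩ := hc
  intro p hp
  obtain ⟨q, hq, rfl⟩ := List.mem_map.mp hp
  have := h.sb (List.all_eq_true.mpr (h1 q hq).1)
  rw [eq1_spec (h1 q hq).2] at this
  exact this.uniq hi Tr.one

theorem Dm.nil {x : Grp} : Dm θ g x [] := fun _ h => absurd h (by simp)

theorem Dm.var {x : Grp} {dom : List (ℕ × List ℕ)} {l : ℕ} (h1 : Tr θ g (ev l) x)
    (h : Dm θ g x dom) : Dm θ g x ((l, [32]) :: dom) :=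
  List.forall_mem_cons.mpr ⟨by rw [evX_x]; exact h1, h⟩

theorem Dm.cons {x : Grp} {dom : List (ℕ × List ℕ)} {l : ℕ} {w : List ℕ}
    (h1 : Tr θ g (ev l) (evL ev w)) (hw : inR 32 w = true) (h : Dm θ g x dom) :
    Dm θ g x ((l, w) :: dom) :=
  List.forall_mem_cons.mpr ⟨by rw [evX_in x hw]; exact h1, h⟩

/-- The action on the letters of the centraliser of the four-group is known. -/
def HK (θ : Grp →* G) (g : G) (sg : List (List ℕ)) : Prop :=
  ∀ l ∈ KL, Tr θ g (ev l) (evS ev sg l)

theorem HK.word {sg : List (List ℕ)} (h : HK θ g sg) :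
    ∀ {w : List ℕ}, w.all KL.elem = true → Tr θ g (evL ev w) (evL ev (subst sg w))
  | [], _ => Tr.one
  | l :: w, hw => by
    rw [List.all_cons, Bool.and_eq_true] at hw
    have := (h l (List.mem_of_elem_eq_true hw.1)).mul (h.word hw.2)
    rwa [← evL_subst, ← evL_cons, ← evL_cons, evL_subst] at this

/-- Products alternating between the model and `g`. -/
noncomputable def hW (θ : Grp →* G) (g : G) : List (List ℕ) → G
  | [] => 1
  | x :: xs => θ (evL ev x) * g * hW θ g xs

theorem hW_rep (x : List ℕ) : ∀ n, hW θ g (List.replicate n x) = (θ (evL ev x) * g) ^ n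
  | 0 => (pow_zero _).symm
  | n + 1 => by rw [List.replicate_succ, hW, hW_rep x n, pow_succ']

noncomputable def cjB (sg : List (List ℕ)) (fin : List ℕ → Bool) :
    List (List ℕ) → List (List ℕ) → List ℕ → Bool
  | [], _, u => fin u
  | _ :: _, [], _ => false
  | x :: xs, w :: ws, u =>
    w.all KL.elem && eqB (invW nv x ++ u ++ x) w && cjB sg fin xs ws (subst sg w)

theorem HK.cj {sg : List (List ℕ)} (h : HK θ g sg) {fin : List ℕ → Bool} :
    ∀ {xs ws : List (List ℕ)} {u : List ℕ}, cjB sg fin xs ws u = true →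
      ∃ u', Tr θ (hW θ g xs) (evL ev u) (evL ev u') ∧ fin u' = true
  | [], _, u, e => ⟨u, by simp [Tr, hW], by simpa [cjB] using e⟩
  | _ :: _, [], _, e => by simp [cjB] at e
  | x :: xs, w :: ws, u, e => by
    simp only [cjB, Bool.and_eq_true] at e
    obtain ⟨u', h1, h2⟩ := h.cj e.2
    refine ⟨u', ?_, h2⟩
    have h3 := eqB_spec e.1.2
    have h4 := h.word e.1.1
    rw [evL_append, evL_append, evL_invW hv] at h3
    unfold Tr at *
    rw [← h1, ← h4, ← h3, hW, map_mul, map_mul, map_inv]
    group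

/-- Commutator templates. -/
def cmT (u : List ℕ) : List ℕ := [32] ++ u ++ [33] ++ invW nv u

theorem cmT_one {z : Grp} {u : List ℕ} (hu : inR 32 u = true) (hu' : inR 32 (invW nv u) = true)
    (c : Commute z (evL ev u)) : evL (evX z) (cmT u) = 1 := by
  unfold cmT
  rw [evL_append, evL_append, evL_append, evX_x, evX_in z hu, evX_in z hu', evL_invW hv, c.eq]
  simp [evL_singleton, evX]

theorem HK.cen (hi : Function.Injective θ) (hC : ∀ z, Commute z (θ (ev 15)) → z ∈ θ.range)
    {sg : List (List ℕ)} (h : HK θ g sg) {xs U : List (List ℕ)} {W : List (List (List ℕ))}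
    (hc : (U.elem [15] && decide (U.length ≤ W.length) &&
      (U.zip W).all fun e => cjB sg (eqB e.1) xs e.2 e.1) = true) :
    ∃ z, hW θ g xs = θ z ∧ ∀ u ∈ U, Commute z (evL ev u) := by
  simp only [Bool.and_eq_true, decide_eq_true_eq, List.all_eq_true] at hc
  have h1 : ∀ u ∈ U, Commute (hW θ g xs) (θ (evL ev u)) := fun u hu => by
    obtain ⟨i, hi, rfl⟩ := List.getElem_of_mem hu
    have hm : (U[i], W[i]'(by omega)) ∈ U.zip W := by
      rw [← List.getElem_zip (h := by simp; omega)]
      exact List.getElem_mem _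
    obtain ⟨u', h2, h3⟩ := h.cj (hc.2 _ hm)
    rw [Tr, ← eqB_spec h3] at h2
    have h4 := congrArg (hW θ g xs * ·) h2
    simp only [← mul_assoc, mul_inv_cancel, one_mul] at h4
    exact h4.symm
  have h2 := h1 _ (List.mem_of_elem_eq_true hc.1.1)
  rw [evL_singleton] at h2
  obtain ⟨z, hz⟩ := hC _ h2
  refine ⟨z, hz.symm, fun u hu => hi ?_⟩
  rw [map_mul, map_mul, hz]
  exact h1 u hu

theorem HK.kill1 (hi : Function.Injective θ) {sg : List (List ℕ)} (h : HK θ g sg) {x z w : List ℕ}
    {n : ℕ} (e : hW θ g (List.replicate n x) = θ (evL ev z))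
    (hc : cjB sg (neB z) [x] [w] z = true) : False := by
  obtain ⟨u', h2, h3⟩ := h.cj hc
  apply neB_spec h3
  apply hi
  rw [← h2, ← e, hW_rep]
  simp only [hW, mul_one]
  rw [mul_assoc, ← pow_succ, pow_succ', inv_mul_cancel_left]

theorem HK.kill2 (hi : Function.Injective θ) {sg : List (List ℕ)} (h : HK θ g sg) {z u : List ℕ}
    {xs ws : List (List ℕ)} (e : hW θ g xs = θ (evL ev z))
    (hc : cjB sg (neB (invW nv z ++ u ++ z)) xs ws u = true) : False := by
  obtain ⟨u', h2, h3⟩ := h.cj hc
  apply neB_spec h3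
  apply hi
  rw [← h2, e, evL_append, evL_append, evL_invW hv, map_mul, map_mul, map_inv]

end Cfsg.Co3G
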