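import Cfsg.Agent.Co3.B0

set_option autoImplicit false
set_option maxRecDepth 100000
set_option Elab.async false

namespace Cfsg.Co3G

open Cfsg.H6 Cfsg.H6.Co3.P

def C2 : List (List ℕ × List ℕ) := [([], []), ([], [18]), ([26], [18]), ([18,26], [18]), ([19,26], [18]), ([], [19]), ([26], [19]), ([18,26], [19]), ([19,26], [19]), ([], [20]), ([], [21]), ([], [18,20]), ([26], [18,20]), ([18,26], [18,20]), ([19,26], [18,20]), ([], [19,21]), ([26], [19,21]), ([18,26], [19,21]), ([19,26], [19,21]), ([], [18,21]), ([26], [18,21]), ([18,26], [18,21]), ([19,26], [18,21]), ([], [19,20]), ([26], [19,20]), ([18,26], [19,20]), ([19,26], [19,20])]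

theorem p2 : allR (fun i => passB [[32, 32, 32], [32, 20, 33, 21]] C2 (wdD i)) 0 4608 = true := by
  decide +kernel

theorem p5 : allR (fun i => passB [[33, 20, 32, 20], [33, 18, 32, 18], [33, 26, 32, 26], [33, 24, 32, 24]]
    [([], [22]), ([], [22, 15]), ([], [22, 16]), ([], [22, 15, 16])] (wdD i)) 0 4608 = true := by
  decide +kernel

def UV : List (List ℕ) := [[18], [20], [24], [26], [15], [16]]

def ZV : List (List ℕ) := [[], [15], [16], [15, 16]]

theorem pV : allR (fun i => passB (UV.map cmT) (ZV.map fun w => ([], w)) (wdD i)) 0 4608 = true := by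
  decide +kernel

def UE : List (List ℕ) := [[19,20,24,26,28,18,21], [24,26,28], [15], [16]]

def ZE : List (List ℕ) := [[], [15], [16], [15,16], [24,26,28], [24,27,28], [24,27,29], [24,26,29], [19,20,24,26,29,18,21], [19,20,24,26,28,18,21], [18,21,24,26,29,19,20], [19,20,24,27,28,18,21], [19,20,24,27,29,18,21], [18,21,24,26,28,19,20], [18,21,24,27,29,19,20], [18,21,24,27,28,19,20]]

theorem pE : allR (fun i => passB (UE.map cmT) (ZE.map fun w => ([], w)) (wdD i)) 0 4608 = true := by
  decide +kernel

def W2 : List (List (List ℕ)) := [[[18], [20]], [[20], [18]], [[24], [26]], [[26], [24]], [[15], [16]], [[16], [15]]]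

def W3 : List (List (List ℕ)) := [[[18], [19,21], [20]], [[19,21], [20], [18]], [[25], [29], [26]], [[28], [27], [24]], [[15], [15,16], [16]], [[15,16], [16], [15]]]

def W5 : List (List (List ℕ)) := [[[19,20,24,27,29,18,21], [24,27,29], [24,26,29], [24,27,28], [18,21,24,26,29,19,20]], [[24,27,28], [18,21,24,26,29,19,20], [19,20,24,27,29,18,21], [24,27,29], [24,26,29]], [[15], [19,20,24,26,29,18,21], [24,26,28], [18,21,24,27,28,19,20], [16]], [[19,20,24,26,29,18,21], [24,26,28], [18,21,24,27,28,19,20], [16], [15]]]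

def K3 : List (List ℕ) := [[15], [15,16], [16]]

def K5 : List (List ℕ) := [[15], [19,20,24,26,29,18,21], [19,20,24,27,28,18,21], [24,27,28], [18,21,24,26,29,19,20], [24,26,29], [18,21,24,27,28,19,20], [15,16], [19,20,24,27,29,18,21], [18,21,24,26,28,19,20], [16], [19,20,24,26,28,18,21], [24,26,28], [24,27,29], [18,21,24,27,29,19,20]]

def sgv (r : List ℕ) : List (List ℕ) := [[], [], [], [], [], [], [], [], [], [], [], [], [], [], [], [16], [15], [15], [20], [21], [18], [19], 22 :: r, 23 :: r, [26], [27], [24], [25], [29], [28]]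

end Cfsg.Co3G
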