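import Cfsg.Agent.Co3.B2
import Cfsg.Agent.Co3.B3
import Cfsg.Agent.H6.Co3.G.Main

set_option autoImplicit false
set_option maxRecDepth 100000

namespace Cfsg.Co3G

open Cfsg.H6 Cfsg.H6.Co3.P

theorem enD : Nat.card (fixS φ [0]) = 4608 ∧ ∀ x ∈ fixS φ [0], ∃ i < 4608, evL ev (wdD i) = x := by
  have := finite
  exact enum (by decide) (ub_of_lb lb1 (by norm_num) (by rw [card]) le_rfl) (allR_range eD rfl)

theorem cenY {x : Grp} (h : Commute x (ev 16)) : x ∈ fixS φ [0] :=
  fix0 (w := [16]) (by decide) fy (by rw [evL_singleton, mul_assoc, ← h.eq, inv_mul_cancel_left])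

theorem passD {Hs : List (List ℕ)} {C : List (List ℕ × List ℕ)}
    (h : allR (fun i => passB Hs C (wdD i)) 0 4608 = true) {x : Grp} (hx : x ∈ fixS φ [0])
    (hH : ∀ p ∈ Hs, evL (evX x) p = 1) :
    ∃ c ∈ C, (evL ev c.1)⁻¹ * x * evL ev c.1 = evL ev c.2 := by
  obtain ⟨i, hi, e⟩ := enD.2 x hx
  exact pass1 (allR_spec h i (Nat.zero_le _) (by omega)) e hH

/-- A pass over the centraliser of the four-group. -/
def Pass (Hs : List (List ℕ)) (C : List (List ℕ × List ℕ)) : Prop :=
  ∀ x ∈ fixS φ [0], (∀ p ∈ Hs, evL (evX x) p = 1) →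
    ∃ c ∈ C, (evL ev c.1)⁻¹ * x * evL ev c.1 = evL ev c.2

theorem Pass.of {Hs : List (List ℕ)} {C : List (List ℕ × List ℕ)}
    (h : allR (fun i => passB Hs C (wdD i)) 0 4608 = true) : Pass Hs C :=
  fun _ hx hH => passD h hx hH

theorem Pass.sub {h0 : List ℕ} {L : List (List ℕ)}
    (h : allR (fun i => passB [h0] (L.map fun w => ([], w)) (wdD i)) 0 4608 = true)
    {Hs : List (List ℕ)} {C : List (List ℕ × List ℕ)}
    (hc : (Hs.elem h0 && L.all (passB Hs C)) = true) : Pass Hs C := by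
  intro x hx hH
  rw [Bool.and_eq_true] at hc
  obtain ⟨c, hc', e⟩ := passD h hx fun p hp => by
    rw [List.mem_singleton.mp hp]
    exact hH _ (List.mem_of_elem_eq_true hc.1)
  obtain ⟨w, hw, rfl⟩ := List.mem_map.mp hc'
  simp only [evL_nil, inv_one, one_mul, mul_one] at e
  exact pass1 (List.all_eq_true.mp hc.2 w hw) e.symm hH

variable {G : Type*} [Group G] {θ : Grp →* G} {g : G}

/-- Known images of letters. -/
def Kn (θ : Grp →* G) (g : G) (dom : List (ℕ × List ℕ)) : Prop :=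
  ∀ e ∈ dom, Tr θ g (ev e.1) (evL ev e.2)

theorem Kn.dm {dom : List (ℕ × List ℕ)} (h : Kn θ g dom)
    (hc : (dom.all fun e => inR 32 e.2) = true) (x : Grp) : Dm θ g x dom := fun e he => by
  rw [evX_in x (List.all_eq_true.mp hc e he)]
  exact h e he

variable (hi : Function.Injective θ) (hC : ∀ z, Commute z (θ (ev 15)) → z ∈ θ.range)
include hi

theorem Kn.inj {dom : List (ℕ × List ℕ)} (h : Kn θ g dom) (p : List ℕ)
    (hc : ((dom.all fun e => inR 32 e.2) && p.all (okL dom) && ne1 p && inR 32 (sb dom p) &&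
      eq1 (sb dom p)) = true) : False := by
  simp only [Bool.and_eq_true] at hc
  have := (h.dm hc.1.1.1.1 1).sb hc.1.1.1.2
  rw [evX_in 1 hc.1.2, eq1_spec hc.2] at this
  exact ne1_spec hc.1.1.2 (this.uniq' hi Tr.one)

include hC

theorem tr_ex (h1 : Tr θ g (ev 15) (ev 16)) (h2 : Tr θ g (ev 16) (ev 15)) {x : Grp}
    (hx : x ∈ fixS φ [0]) : ∃ x' ∈ fixS φ [0], Tr θ g x x' := by
  have c : ∀ {u u' : Grp}, Tr θ g u u' → Commute x u → Commute (g⁻¹ * θ x * g) (θ u') :=
    fun {u u'} h c => by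
      rw [← h]
      have := (c.map θ).conj g⁻¹
      simpa only [inv_inv] using this
  obtain ⟨x', e⟩ := hC _ (c h2 (comm_K hx))
  refine ⟨x', cenY (hi ?_), e.symm⟩
  rw [map_mul, map_mul, e]
  exact c h1 (cen_t x)

theorem Kn.step {dom : List (ℕ × List ℕ)} (h : Kn θ g dom) (l : ℕ) (ps : List (List ℕ))
    {Hs : List (List ℕ)} {C : List (List ℕ × List ℕ)} (hp : Pass Hs C) (Rs : List (List ℕ))
    (hc : (dom.elem (15, [16]) && dom.elem (16, [15]) && fixB img 32 [0] [l] &&
      (dom.all fun e => inR 32 e.2) &&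
      ((ps.all fun p => p.all (okL ((l, [32]) :: dom)) && eq1 p) &&
        Hs == ps.map (sb ((l, [32]) :: dom))) &&
      C.all fun c => Rs.elem c.2 && dom.all fun e => eqB (c.1 ++ e.2) (e.2 ++ c.1)) = true) :
    ∃ g', ∃ r ∈ Rs, Kn θ g' ((l, r) :: dom) := by
  simp only [Bool.and_eq_true] at hc
  obtain ⟨⟨⟨⟨⟨a1, a2⟩, a3⟩, a4⟩, a5⟩, a6⟩ := hc
  have h1 := h _ (List.mem_of_elem_eq_true a1)
  have h2 := h _ (List.mem_of_elem_eq_true a2)
  rw [evL_singleton] at h1 h2
  have hl : evL ev [l] ∈ fixS φ [0] := hφ.mem_fixS (by simp) a3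
  rw [evL_singleton] at hl
  obtain ⟨x, hx, e⟩ := tr_ex hi hC h1 h2 hl
  obtain ⟨c, hc, e'⟩ := hp x hx (((h.dm a4 x).var e).rel hi (ps := ps)
    (by rw [Bool.and_eq_true]; exact a5))
  have a7 := List.all_eq_true.mp a6 c hc
  rw [Bool.and_eq_true] at a7
  refine ⟨g * θ (evL ev c.1), c.2, List.mem_of_elem_eq_true a7.1,
    List.forall_mem_cons.mpr ⟨e' ▸ e.adj _, fun d hd => (h d hd).adj' ?_⟩⟩
  have := eqB_spec (List.all_eq_true.mp a7.2 d hd)
  rwa [evL_append, evL_append] at this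

theorem Kn.kill {dom : List (ℕ × List ℕ)} (h : Kn θ g dom) (l : ℕ) (ps : List (List ℕ))
    {h0 : List ℕ} {L : List (List ℕ)}
    (hp : allR (fun i => passB [h0] (L.map fun w => ([], w)) (wdD i)) 0 4608 = true)
    (hc' : ((ps.map (sb ((l, [32]) :: dom))).elem h0 &&
      L.all (passB (ps.map (sb ((l, [32]) :: dom))) [])) = true)
    (hc : (dom.elem (15, [16]) && dom.elem (16, [15]) && fixB img 32 [0] [l] &&
      (dom.all fun e => inR 32 e.2) &&
      (ps.all fun p => p.all (okL ((l, [32]) :: dom)) && eq1 p)) = true) : False := by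
  obtain ⟨_, r, hr, _⟩ := h.step hi hC l ps (Pass.sub hp hc') [] (by
    rw [Bool.and_eq_true] at hc
    rw [hc.1, hc.2]
    simp)
  simp at hr

def d0 : List (ℕ × List ℕ) := [(15, [16]), (16, [15])]
def d1 : List (ℕ × List ℕ) := (18, [20]) :: d0
def d2 : List (ℕ × List ℕ) := (20, [18]) :: d1
def d3 : List (ℕ × List ℕ) := (24, [26]) :: d2
def d4 : List (ℕ × List ℕ) := (26, [24]) :: d3
def d6 (r : List ℕ) : List (ℕ × List ℕ) := (28, [29]) :: (22, 22 :: r) :: d4

theorem st1 (h : Kn θ g d0) : ∃ g', Kn θ g' d1 := by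
  obtain ⟨g', r, hr, k⟩ := h.step hi hC 18 [[18, 18, 18]] (Pass.of p1)
    [[], [18], [20], [18, 20], [18, 21]] (by decide +kernel)
  have kl : r ∈ [[18], [18, 20], [18, 21]] → False := fun hr' => by
    refine k.kill hi hC 24 [[24, 24, 15], [24, 18, 25, 19]] pRy ?_ ?_ <;>
      clear k hr <;> revert r <;> decide +kernel
  simp only [List.mem_cons, List.not_mem_nil, or_false] at hr
  rcases hr with rfl | rfl | rfl | rfl | rfl
  · exact (k.inj hi [18] (by decide +kernel)).elim
  · exact (kl (by decide)).elim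
  · exact ⟨g', k⟩
  · exact (kl (by decide)).elim
  · exact (kl (by decide)).elim

theorem st2 (h : Kn θ g d1) : ∃ g', Kn θ g' d2 := by
  obtain ⟨g', r, hr, k⟩ := h.step hi hC 20 [[20, 20, 20], [20, 18, 21, 19]] (Pass.of p2)
    [[], [18], [19], [20], [21], [18, 20], [19, 21], [18, 21], [19, 20]] (by decide +kernel)
  have kl : r ∈ [[20], [21], [18, 20], [19, 21], [18, 21], [19, 20]] → False := fun hr' => by
    refine k.kill hi hC 26 [[26, 26, 17], [26, 20, 27, 21]] pRt ?_ ?_ <;>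
      clear k hr <;> revert r <;> decide +kernel
  simp only [List.mem_cons, List.not_mem_nil, or_false] at hr
  rcases hr with rfl | rfl | rfl | rfl | rfl | rfl | rfl | rfl | rfl
  · exact (k.inj hi [20] (by decide +kernel)).elim
  · exact ⟨g', k⟩
  · exact (k.kill hi hC 28 [[28, 28, 15, 17], [28, 18, 20, 29, 21, 19]] pRz (by decide +kernel)
      (by decide +kernel)).elim
  all_goals exact (kl (by decide)).elim

theorem st3 (h : Kn θ g d2) : ∃ g', Kn θ g' d3 := by
  obtain ⟨g', r, hr, k⟩ := h.step hi hC 24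
    [[24, 24, 15], [24, 18, 25, 19], [24, 21, 24, 21, 25, 20, 20]]
    (Pass.sub pRy (Hs := [[32, 32, 16], [32, 20, 33, 21], [32, 19, 32, 19, 33, 18, 18]])
      (C := [([], [26]), ([18], [26]), ([19], [26])]) (by decide +kernel)) [[26]] (by decide +kernel)
  rw [List.mem_singleton.mp hr] at k
  exact ⟨g', k⟩

theorem st4 (h : Kn θ g d3) : ∃ g', Kn θ g' d4 := by
  obtain ⟨g', r, hr, k⟩ := h.step hi hC 26
    [[26, 26, 17], [26, 20, 27, 21], [26, 19, 26, 19, 27, 18, 18]]
    (Pass.sub pRt (Hs := [[32, 32, 15], [32, 18, 33, 19], [32, 21, 32, 21, 33, 20, 20]])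
      (C := [([], [24]), ([20], [24]), ([21], [24])]) (by decide +kernel)) [[24]] (by decide +kernel)
  rw [List.mem_singleton.mp hr] at k
  exact ⟨g', k⟩

theorem st6 (h : Kn θ g d4) : ∃ g', ∃ r ∈ ZV, Kn θ g' (d6 r) := by
  obtain ⟨g', r0, hr0, k⟩ := h.step hi hC 22
    [[23, 18, 22, 18], [23, 20, 22, 20], [23, 24, 22, 24], [23, 26, 22, 26]] (Pass.of p5)
    (ZV.map (22 :: ·)) (by decide +kernel)
  obtain ⟨r, hr, rfl⟩ := List.mem_map.mp hr0
  clear hr0
  obtain ⟨g'', r', hr', k'⟩ := k.step hi hC 28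
    [[28, 28, 15, 17], [28, 18, 20, 29, 21, 19], [28, 19, 28, 19, 29, 18, 18], [23, 28, 22, 28]]
    (Pass.sub pRz (Hs := [[32, 32, 16, 15], [32, 20, 18, 33, 19, 21], [32, 21, 32, 21, 33, 20, 20],
      invW nv2 (22 :: r) ++ [32] ++ (22 :: r) ++ [32]]) (C := [([], [29])])
      (by clear k; revert r; decide +kernel)) [[29]] (by clear k; revert r; decide +kernel)
  rw [List.mem_singleton.mp hr'] at k'
  exact ⟨g'', r, hr, k'⟩

omit hi hC in
theorem Kn.hk {r : List ℕ} (hr : r ∈ ZV) (h : Kn θ g (d6 r)) : HK θ g (sgv r) := by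
  intro l hl
  have c : ((d6 r).all fun e => inR 32 e.2) = true ∧ okL (d6 r) l = true ∧
      inR 32 (lk (d6 r) l) = true ∧ eqB (lk (d6 r) l) ((sgv r).getD l []) = true := by
    clear h; revert l r; decide +kernel
  have := (h.dm c.1 1).lk c.2.1
  rwa [evX_in 1 c.2.2.1, eqB_spec c.2.2.2] at this

theorem HK.pow {sg : List (List ℕ)} (h : HK θ g sg) {xs U Z : List (List ℕ)}
    {W : List (List (List ℕ))}
    (hp : allR (fun i => passB (U.map cmT) (Z.map fun w => ([], w)) (wdD i)) 0 4608 = true)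
    (hc : (U.elem [15] && decide (U.length ≤ W.length) &&
      (U.zip W).all fun e => cjB sg (eqB e.1) xs e.2 e.1) = true)
    (hc' : (U.elem [16] && U.all fun u => inR 32 u && inR 32 (invW nv u)) = true) :
    ∃ z ∈ Z, hW θ g xs = θ (evL ev z) := by
  obtain ⟨z, e, hz⟩ := h.cen hi hC hc
  simp only [Bool.and_eq_true, List.all_eq_true] at hc'
  have h1 := hz _ (List.mem_of_elem_eq_true hc'.1)
  rw [evL_singleton] at h1
  obtain ⟨c, hc, e'⟩ := passD hp (cenY h1) fun p hp => by
    obtain ⟨u, hu, rfl⟩ := List.mem_map.mp hp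
    exact cmT_one (hc'.2 u hu).1 (hc'.2 u hu).2 (hz u hu)
  obtain ⟨w, hw, rfl⟩ := List.mem_map.mp hc
  simp only [evL_nil, inv_one, one_mul, mul_one] at e'
  exact ⟨w, hw, e' ▸ e⟩

theorem HK.pow1 {sg : List (List ℕ)} (h : HK θ g sg) {x : List ℕ} {n : ℕ} {U Z Ks : List (List ℕ)}
    {W : List (List (List ℕ))}
    (hp : allR (fun i => passB (U.map cmT) (Z.map fun w => ([], w)) (wdD i)) 0 4608 = true)
    (hc : (U.elem [15] && decide (U.length ≤ W.length) &&
      (U.zip W).all fun e => cjB sg (eqB e.1) (List.replicate n x) e.2 e.1) = true)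
    (hc' : (U.elem [16] && U.all fun u => inR 32 u && inR 32 (invW nv u)) = true)
    (hk : (Z.all fun z => z == [] || Ks.any fun k => cjB sg (neB z) [x] [k] z) = true) :
    (θ (evL ev x) * g) ^ n = 1 := by
  obtain ⟨z, hz, e⟩ := h.pow hi hC hp hc hc'
  have := List.all_eq_true.mp hk z hz
  simp only [Bool.or_eq_true, beq_iff_eq, List.any_eq_true] at this
  rcases this with rfl | ⟨k, _, hk⟩
  · rwa [hW_rep, evL_nil, map_one] at e
  · exact (h.kill1 hi e hk).elim

theorem st7 {r : List ℕ} (hr : r ∈ ZV) (h : HK θ g (sgv r)) :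
    (r = [] ∨ r = [15, 16]) ∧ ∃ g', HK θ g' (sgv r) ∧ g' * g' = 1 := by
  obtain ⟨z, hz, e⟩ := h.pow hi hC (xs := List.replicate 2 []) (W := W2) pV
    (by clear h; revert r; decide +kernel) (by decide +kernel)
  constructor
  · by_contra hn
    refine h.kill2 hi (u := [22]) (ws := [[22], 22 :: r]) e ?_
    clear h e; revert r z; decide +kernel
  · have c : z = [] ∨ z = [15, 16] := by
      by_contra hn
      refine h.kill1 hi (w := z) e ?_
      clear h e; revert r z; decide +kernel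
    rw [hW_rep, evL_nil, map_one, one_mul, pow_two] at e
    rcases c with rfl | rfl
    · exact ⟨g, h, by simpa [evL_nil] using e⟩
    · refine ⟨g * θ (ev 15), fun l hl => (h l hl).adj' (cen_t _).symm, ?_⟩
      have h1 : Tr θ g (ev 15) (ev 16) := by
        have := h 15 (by decide)
        rwa [evS, show (sgv r).getD 15 [] = [16] from rfl, evL_singleton] at this
      have h2 : evL ev [15, 16] * ev 16 * ev 15 = 1 := by
        have := eq1_spec (w := [15, 16, 16, 15]) (by decide +kernel)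
        simpa [evL_cons, evL_nil, mul_assoc] using this
      calc g * θ (ev 15) * (g * θ (ev 15)) = g * g * (g⁻¹ * θ (ev 15) * g) * θ (ev 15) := by group
        _ = 1 := by rw [e, h1, ← map_mul, ← map_mul, h2, map_one]

/-- The letters of the amalgam in the overgroup. -/
noncomputable def evG (θ : Grp →* G) (g : G) (l : ℕ) : G := if l = 32 then g else θ (ev l)

omit hi hC in
theorem evG_in {w : List ℕ} (h : inR 32 w = true) : evL (evG θ g) w = θ (evL ev w) := by
  rw [map_evL]
  exact evL_congr fun l hl => if_neg (by have := (inR_spec h l hl).2; omega)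

omit hi hC in
theorem good_evG (hg : g * g = 1) : Good (evG θ g)
    3718971207344109804065969589026521216184392754226401235023396761360169781232128 := by
  refine ⟨by simp [evG, hv.zero], fun l => ?_⟩
  by_cases h : l < 33
  · have e : ∀ l < 33, (l = 32 ∧ invL
        3718971207344109804065969589026521216184392754226401235023396761360169781232128 l = 32) ∨
        (l ≠ 32 ∧ invL nv l ≠ 32 ∧ invL
        3718971207344109804065969589026521216184392754226401235023396761360169781232128 l =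
          invL nv l) := by
      decide +kernel
    rcases e l h with ⟨rfl, e⟩ | ⟨a, b, e⟩
    · simp [evG, e, eq_inv_iff_mul_eq_one, hg]
    · simp only [evG, e, a, b, if_false, hv.inv, map_inv]
  · rw [invL_eq_zero (n := 33) (by decide +kernel) (by omega)]
    have : ev l = 1 := hv.eq_one (m := 32) (by decide +kernel) (by omega)
    simp [evG, hv.zero, this, show l ≠ 32 by omega]

def RTv (r : List ℕ) : List (List ℕ) :=
  (KL.map fun l => [32, l, 32] ++ invW nv ((sgv r).getD l [])) ++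
    [rp 3 ([30] ++ [32]), rp 5 ([7, 3, 5, 1, 7, 5, 9, 7] ++ [32])]

theorem rels_v {r : List ℕ} (hr : r = [] ∨ r = [15, 16]) (h : HK θ g (sgv r)) (hg : g * g = 1) :
    Rels (evG θ g) (RTv r) := by
  have e32 : evL (evG θ g) [32] = g := by simp [evL_singleton, evG]
  have hr' : r ∈ [[], [15, 16]] := by simpa using hr
  refine Rels.append (fun w hw => ?_) (List.forall_mem_cons.mpr ⟨?_, List.forall_mem_cons.mpr
    ⟨?_, by simp⟩⟩)
  · obtain ⟨l, hl, rfl⟩ := List.mem_map.mp hw
    have c : inR 32 (invW nv ((sgv r).getD l [])) = true ∧ l ≠ 32 := by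
      clear h hw hr; revert l r; decide +kernel
    have := h l hl
    rw [evL_append, evG_in c.1, evL_invW hv, map_inv, mul_inv_eq_one]
    rw [Tr, inv_eq_of_mul_eq_one_right hg] at this
    simpa [evL_cons, evL_nil, evG, c.2, mul_assoc, evS] using this
  · rw [evL_rp, evL_append, e32, evG_in (by decide)]
    exact h.pow1 hi hC (W := W3) (Ks := K3) pV (by clear h hr; revert r; decide +kernel)
      (by decide +kernel) (by clear h hr; revert r; decide +kernel)
  · rw [evL_rp, evL_append, e32, evG_in (by decide)]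
    exact h.pow1 hi hC (W := W5) (Ks := K5) pE (by clear h hr; revert r; decide +kernel)
      (by decide +kernel) (by clear h hr; revert r; decide +kernel)

/-- The amalgam maps to the overgroup. -/
theorem amalgam (h1 : Tr θ g (ev 15) (ev 16)) (h2 : Tr θ g (ev 16) (ev 15)) :
    ∃ Φ : Co3.G.Grp →* G, (∀ x, Φ (Co3.G.θ x) = θ x) ∧ Φ (Co3.G.ev 32) ∉ θ.range := by
  have k0 : Kn θ g d0 := List.forall_mem_cons.mpr ⟨by rw [evL_singleton]; exact h1,
    List.forall_mem_cons.mpr ⟨by rw [evL_singleton]; exact h2, by simp⟩⟩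
  obtain ⟨_, k1⟩ := st1 hi hC k0
  obtain ⟨_, k2⟩ := st2 hi hC k1
  obtain ⟨_, k3⟩ := st3 hi hC k2
  obtain ⟨_, k4⟩ := st4 hi hC k3
  obtain ⟨_, r, hr, k6⟩ := st6 hi hC k4
  obtain ⟨c, g', k, hg⟩ := st7 hi hC hr (k6.hk hr)
  have hR := rels_v hi hC c k hg
  have hn : g' ∉ θ.range := by
    rintro ⟨p, rfl⟩
    have := k 15 (by decide)
    rw [evS, show (sgv r).getD 15 [] = [16] from rfl, Tr, ← map_inv, ← map_mul, ← map_mul,
      mul_assoc, ← (cen_t p).eq, inv_mul_cancel_left, ← evL_singleton ev 15] at this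
    exact neB_spec (by decide +kernel) (hi this)
  have hθ : ∀ l, 1 ≤ l → l < 32 → θ (ev l) = evG θ g' l := fun l _ h => (if_neg (by omega)).symm
  rcases c with rfl | rfl
  · have hP : Rels (evG θ g') R := fun w hw => by
      have c : R.all (inR 32) = true := by decide +kernel
      rw [evG_in (List.all_eq_true.mp c w hw), Co3.P.hR w hw, map_one]
    obtain ⟨Φ, hΦ⟩ := Co3.G.lift (good_evG hg) (by
      rw [Co3.G.R_eq]
      exact hP.append (hR.mono (by decide +kernel)))
    refine ⟨Φ, fun x => ?_, by rw [hΦ]; exact hn⟩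
    have : (Φ.comp Co3.G.θ).eqLocus θ = ⊤ := top_le_iff.mp (hX ▸ gen_le fun w hw => by
      have c : X.all (fun w => w.length == 1 && inR 32 w) = true := by decide +kernel
      have c' := List.all_eq_true.mp c w hw
      simp only [Bool.and_eq_true, beq_iff_eq] at c'
      obtain ⟨l, rfl⟩ := List.length_eq_one_iff.mp c'.1
      have c2 := inR_spec c'.2 l (by simp)
      change Φ (Co3.G.θ _) = θ _
      rw [evL_singleton, Co3.G.hθ1 l c2.1 c2.2, hΦ, hθ l c2.1 c2.2])
    exact (this ▸ Subgroup.mem_top x : x ∈ (Φ.comp Co3.G.θ).eqLocus θ)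
  · exact absurd (Co3.G.wrong (good_evG hg) (hR.mono (by decide +kernel)) hθ) hn

end Cfsg.Co3G
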