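import Cfsg.Agent.Co3.B1
import Cfsg.Agent.Co3.C
import Cfsg.Agent.Co3.D
import Cfsg.Agent.H5.ZStar
import Cfsg.Prelude.Def_CaseTheorems

set_option autoImplicit false
set_option maxRecDepth 100000

namespace Cfsg.Co3G

open Cfsg.H6 Cfsg.H6.Co3.P

theorem conj_odd {G : Type*} [Group G] [Finite G] {T : Subgroup G} (hT : Odd T.index) {x : G}
    {k : ℕ} (hx : x ^ 2 ^ k = 1) : ∃ g : G, g⁻¹ * x * g ∈ T := by
  have : Fact (Nat.Prime 2) := ⟨Nat.prime_two⟩
  have hp : IsPGroup 2 (Subgroup.zpowers x) := by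
    rintro ⟨_, n, rfl⟩
    refine ⟨k, Subtype.ext ?_⟩
    show (x ^ n) ^ 2 ^ k = 1
    rw [← zpow_natCast, ← zpow_mul, mul_comm, zpow_mul, zpow_natCast, hx, one_zpow]
  obtain ⟨q, hq⟩ := hp.nonempty_fixed_point_of_prime_not_dvd_card (G ⧸ T)
    (by rw [← Subgroup.index, ← even_iff_two_dvd]; exact Nat.not_even_iff_odd.mpr hT)
  induction q using QuotientGroup.induction_on with
  | H g =>
    have h1 := hq ⟨x, Subgroup.mem_zpowers x⟩
    have h2 : ((x * g : G) : G ⧸ T) = g := h1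
    refine ⟨g, ?_⟩
    have := T.inv_mem (QuotientGroup.eq.mp h2)
    simpa [mul_assoc] using this

theorem enS : Nat.card (fixS φ [1320, 1005, 870]) = 1024 ∧
    ∀ x ∈ fixS φ [1320, 1005, 870], ∃ i < 1024, evL ev (wdS i) = x := by
  have := finite
  exact enum (by decide) (ub_of_lb lbF (by norm_num) (by rw [card]) le_rfl) (allR_range eS rfl)

theorem toS {x : Grp} {k : ℕ} (hx : x ^ 2 ^ k = 1) :
    ∃ g : Grp, ∃ i < 1024, evL ev (wdS i) = g⁻¹ * x * g := by
  have := finite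
  obtain ⟨g, hg⟩ := conj_odd (T := fixS φ [1320, 1005, 870])
    (by rw [index_of_cards enS.1 (n := 2835) card]; decide) hx
  exact ⟨g, enS.2 _ hg⟩

/-- The second noncentral class of involutions. -/
noncomputable def vI : Grp := evL ev [1, 3, 9]

theorem cj_t (c : Grp) {x : Grp} (h : c⁻¹ * x * c = ev 15) : x = ev 15 := by
  calc x = c * (c⁻¹ * x * c) * c⁻¹ := by group
    _ = ev 15 := by rw [h, (cen_t c).eq, mul_inv_cancel_right]

theorem classes {s : Grp} (hs : s * s = 1) : s = 1 ∨ s = ev 15 ∨ (∃ c, c⁻¹ * s * c = ev 16) ∨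
    ∃ c, c⁻¹ * s * c = vI := by
  obtain ⟨g, i, hi, e⟩ := toS (k := 1) (x := s) (by simpa [pow_two] using hs)
  obtain ⟨c, hc, e'⟩ := pass1 (allR_spec pI i (Nat.zero_le _) (by omega)) e fun p hp => by
    rw [List.mem_singleton.mp hp]
    change g⁻¹ * s * g * (g⁻¹ * s * g * 1) = 1
    calc _ = g⁻¹ * (s * s) * g := by group
      _ = 1 := by rw [hs]; group
  have e2 : (g * evL ev c.1)⁻¹ * s * (g * evL ev c.1) = evL ev c.2 := by rw [← e']; group
  have : ∀ c ∈ CI, c.2 = [] ∨ c.2 = [15] ∨ c.2 = [16] ∨ c.2 = [1, 3, 9] := by decide +kernel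
  rcases this c hc with h | h | h | h <;> rw [h] at e2
  · left
    rw [evL_nil, mul_assoc, inv_mul_eq_one] at e2
    simpa using e2
  · exact Or.inr (Or.inl (cj_t _ (e2.trans (evL_singleton _ _))))
  · exact Or.inr (Or.inr (Or.inl ⟨_, e2.trans (evL_singleton _ _)⟩))
  · exact Or.inr (Or.inr (Or.inr ⟨_, e2⟩))

theorem not_yv (g : Grp) : g⁻¹ * ev 16 * g ≠ vI := fun h => by
  have := (comm_K (fix0 (w := [1, 3, 9]) (by decide) fv h)).eq
  rw [mul_assoc, ← this, inv_mul_cancel_left, ← evL_singleton ev 16] at h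
  exact neB_spec (by decide +kernel) h

theorem vI_sq : vI * vI = 1 := by
  rw [vI, ← evL_append]
  exact eq1_spec (by decide +kernel)

theorem nosq (x c : Grp) : c⁻¹ * (x * x) * c ≠ vI := fun h => by
  have h4 : x ^ 2 ^ 2 = 1 := by
    calc x ^ 2 ^ 2 = c * ((c⁻¹ * (x * x) * c) * (c⁻¹ * (x * x) * c)) * c⁻¹ := by
          rw [show 2 ^ 2 = 4 from rfl, pow_succ, pow_succ, pow_two]; group
      _ = 1 := by rw [h, vI_sq]; group
  obtain ⟨g, i, hi, e⟩ := toS h4
  obtain ⟨k, hk, e'⟩ := passQ1 (allR_spec pQ i (Nat.zero_le _) (by omega)) e fun p hp => by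
    rw [List.mem_singleton.mp hp]
    change g⁻¹ * x * g * (g⁻¹ * x * g * (g⁻¹ * x * g * (g⁻¹ * x * g * 1))) = 1
    calc _ = g⁻¹ * x ^ 2 ^ 2 * g := by
          rw [show 2 ^ 2 = 4 from rfl, pow_succ, pow_succ, pow_two]; group
      _ = 1 := by rw [h4]; group
  have e2 : ((g * evL ev k.1)⁻¹ * c)⁻¹ * evL ev k.2 * ((g * evL ev k.1)⁻¹ * c) = vI := by
    rw [← e', ← h]; group
  have : ∀ c ∈ CQ, c.2 = [] ∨ c.2 = [15] ∨ c.2 = [16] := by decide +kernel
  rcases this k hk with h' | h' | h' <;> rw [h'] at e2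
  · rw [evL_nil, mul_one, inv_mul_cancel] at e2
    exact ne1_spec (by decide +kernel) e2.symm
  · rw [evL_singleton, mul_assoc, ← (cen_t _).eq, inv_mul_cancel_left, ← evL_singleton ev 15] at e2
    exact neB_spec (by decide +kernel) e2
  · rw [evL_singleton] at e2
    exact not_yv _ e2

theorem comm_of {u w : List ℕ} (h : eqB (u ++ w) (w ++ u) = true) :
    Commute (evL ev u) (evL ev w) := by
  have := eqB_spec h
  rwa [evL_append, evL_append] at this

variable {G : Type*} [Group G] {θ : Grp →* G}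
variable (hi : Function.Injective θ) (hC : ∀ z, Commute z (θ (ev 15)) → z ∈ θ.range)
include hi hC

theorem sq_tr {g : G} {x u : Grp} (c : Commute x u) (h : g⁻¹ * θ u * g = θ (ev 15)) :
    ∃ w, g⁻¹ * θ (x * x) * g = θ (w * w) := by
  obtain ⟨w, e⟩ := hC (g⁻¹ * θ x * g) (by
    rw [← h]
    simpa only [inv_inv] using (c.map θ).conj g⁻¹)
  exact ⟨w, by rw [map_mul, map_mul, e]; group⟩

theorem cls_G {s : G} (hs : s * s = 1) (c : Commute s (θ (ev 15))) : s = 1 ∨ s = θ (ev 15) ∨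
    (∃ c, (θ c)⁻¹ * s * θ c = θ (ev 16)) ∨ ∃ c, (θ c)⁻¹ * s * θ c = θ vI := by
  obtain ⟨u, rfl⟩ := hC s c
  rcases classes (s := u) (hi (by rw [map_mul, hs, map_one])) with h | h | ⟨c, h⟩ | ⟨c, h⟩
  · exact Or.inl (by rw [h, map_one])
  · exact Or.inr (Or.inl (by rw [h]))
  · exact Or.inr (Or.inr (Or.inl ⟨c, by rw [← h, map_mul, map_mul, map_inv]⟩))
  · exact Or.inr (Or.inr (Or.inr ⟨c, by rw [← h, map_mul, map_mul, map_inv]⟩))

omit hC in
theorem t_ne : θ (ev 15) ≠ 1 := fun h =>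
  ne1_spec (w := [15]) (by decide +kernel) (hi (by rw [evL_singleton, h, map_one]))

omit hi hC in
theorem t_sq (m : G) : m⁻¹ * θ (ev 15) * m * (m⁻¹ * θ (ev 15) * m) = 1 := by
  have : ev 15 * ev 15 = 1 := by
    simpa [evL_cons, evL_nil] using eq1_spec (w := [15, 15]) (by decide +kernel)
  calc _ = m⁻¹ * (θ (ev 15) * θ (ev 15)) * m := by group
    _ = 1 := by rw [← map_mul, this, map_one]; group

theorem not_tv (k : G) : k⁻¹ * θ vI * k ≠ θ (ev 15) := fun h => by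
  have c1 : Commute (k⁻¹ * θ (ev 15) * k) (θ (ev 15)) := by
    have := ((cen_t vI).symm.map θ).conj k⁻¹
    rwa [inv_inv, h] at this
  have s1 : evL ev [1] * evL ev [1] = ev 15 := by
    rw [← evL_append, ← evL_singleton ev 15]; exact eqB_spec (by decide +kernel)
  have s2 : evL ev [24] * evL ev [24] = ev 15 := by
    rw [← evL_append, ← evL_singleton ev 15]; exact eqB_spec (by decide +kernel)
  rcases cls_G hi hC (t_sq k) c1 with e | e | ⟨c, e⟩ | ⟨c, e⟩
  · rw [mul_assoc, inv_mul_eq_one] at e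
    exact t_ne hi (by simpa using e)
  · have : vI = ev 15 := hi (by simpa using h.trans e.symm)
    rw [← evL_singleton ev 15] at this
    exact neB_spec (by decide +kernel) this
  · obtain ⟨w, hw⟩ := sq_tr hi hC (g := (k * θ c)⁻¹) (x := evL ev [24]) (u := evL ev [16])
      (comm_of (by decide +kernel)) (by rw [evL_singleton, ← e]; group)
    refine nosq w 1 (hi ?_)
    have a : θ c * θ (ev 15) * (θ c)⁻¹ = θ (ev 15) := by
      rw [← map_mul, (cen_t c).eq, map_mul, mul_inv_cancel_right]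
    rw [inv_one, one_mul, mul_one, ← hw, s2]
    calc _ = k * (θ c * θ (ev 15) * (θ c)⁻¹) * k⁻¹ := by group
      _ = θ vI := by rw [a, ← h]; group
  · obtain ⟨w, hw⟩ := sq_tr hi hC (x := evL ev [1]) (comm_of (by decide +kernel)) h
    refine nosq w c (hi ?_)
    rw [map_mul, map_mul, map_inv, ← hw, s1, e]

theorem to_y {m : G} (c : Commute (m⁻¹ * θ (ev 15) * m) (θ (ev 15)))
    (n : m⁻¹ * θ (ev 15) * m ≠ θ (ev 15)) :
    ∃ c, (m * θ c)⁻¹ * θ (ev 15) * (m * θ c) = θ (ev 16) := by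
  rcases cls_G hi hC (t_sq m) c with e | e | ⟨c, e⟩ | ⟨c, e⟩
  · rw [mul_assoc, inv_mul_eq_one] at e
    exact absurd (by simpa using e) (t_ne hi)
  · exact absurd e n
  · exact ⟨c, by rw [← e]; group⟩
  · exact absurd (by rw [← e]; group) (not_tv hi hC (m * θ c)⁻¹)

theorem swap [Finite G] (hO : oddCore G = ⊥) (hZ : Subgroup.center G = ⊥) :
    ∃ g, Tr θ g (ev 15) (ev 16) ∧ Tr θ g (ev 16) (ev 15) := by
  have ho : orderOf (θ (ev 15)) = 2 :=
    orderOf_eq_prime (by simpa [pow_two] using t_sq (θ := θ) 1) (t_ne hi)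
  have : ¬ IsIsolated (θ (ev 15)) := fun h => by
    have := H5.mem_center_of_isIsolated hO ho h
    rw [hZ, Subgroup.mem_bot] at this
    exact t_ne hi this
  unfold IsIsolated at this
  push Not at this
  obtain ⟨g, c, n⟩ := this
  obtain ⟨c1, e1⟩ := to_y hi hC (m := g⁻¹) (by rw [inv_inv]; exact c.symm) (by rwa [inv_inv])
  generalize g⁻¹ * θ c1 = m at e1
  have ny : θ (ev 16) ≠ θ (ev 15) := fun h => by
    have := hi h
    rw [← evL_singleton ev 15, ← evL_singleton ev 16] at this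
    exact neB_spec (by decide +kernel) this
  obtain ⟨c2, e2⟩ := to_y hi hC (m := m⁻¹) (by
    have := ((cen_t (ev 16)).symm.map θ).conj m
    rw [← e1] at this
    simpa [mul_assoc] using this) (fun h => ny (by rw [← e1]; nth_rw 1 [← h]; group))
  refine ⟨(m⁻¹ * θ c2)⁻¹, ?_, by rw [Tr, ← e2]; group⟩
  have a : θ c2 * θ (ev 15) * (θ c2)⁻¹ = θ (ev 15) := by
    rw [← map_mul, (cen_t c2).eq, map_mul, mul_inv_cancel_right]
  rw [Tr, ← e1]
  nth_rw 2 [← a]
  group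

omit hi hC in
/-- The group side of the identification. -/
theorem gside [Finite G] (hc : Nat.card Co3.G.Grp = 495766656000) (hO : oddCore G = ⊥)
    (hZ : Subgroup.center G = ⊥) {t : G} (ht : orderOf t = 2)
    (hC : IsNonsplitDoubleCover (Subgroup.centralizer ({t} : Set G)) Sp) :
    ∃ Φ : Co3.G.Grp →* G, Function.Injective Φ ∧ Φ (Co3.G.ev 15) = t ∧
      Subgroup.centralizer {t} ≤ Φ.range ∧ Nat.card (Subgroup.centralizer ({t} : Set G)) = 2903040 ∧
      (∀ s, s * s = 1 → Commute s t → s = 1 ∨ s = t ∨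
        (∃ c, Commute c t ∧ c * s * c⁻¹ = Φ (Co3.G.ev 16)) ∨
        ∃ c, Commute c t ∧ c * s * c⁻¹ = Φ (Co3.G.θ vI)) ∧ ¬ IsConj t (Φ (Co3.G.θ vI)) := by
  have t1 : t ≠ 1 := by
    rintro rfl
    simp at ht
  obtain ⟨θ0, hb, e0⟩ := pin hC (d := ⟨t, Subgroup.mem_centralizer_singleton_iff.mpr rfl⟩)
    (Subgroup.mem_center_iff.mpr fun x =>
      Subtype.ext (Subgroup.mem_centralizer_singleton_iff.mp x.2))
    (fun h => t1 (congrArg Subtype.val h))
  let θ : Grp →* G := (Subgroup.subtype _).comp θ0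
  have hi : Function.Injective θ := Subtype.val_injective.comp hb.1
  have e : θ (ev 15) = t := congrArg Subtype.val e0
  have hC' : ∀ z, Commute z (θ (ev 15)) → z ∈ θ.range := fun z hz => by
    rw [e] at hz
    obtain ⟨p, hp⟩ := hb.2 ⟨z, Subgroup.mem_centralizer_singleton_iff.mpr hz⟩
    exact ⟨p, congrArg Subtype.val hp⟩
  obtain ⟨g, g1, g2⟩ := swap hi hC' hO hZ
  obtain ⟨Φ, f1, f2⟩ := amalgam hi hC' g1 g2
  have l : ∀ k, 1 ≤ k → k < 32 → Φ (Co3.G.ev k) = θ (ev k) := fun k a b => by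
    rw [← Co3.G.hθ1 k a b, f1]
  have cm : ∀ c, Commute (θ c)⁻¹ t := fun c => e ▸ ((cen_t c).map θ).inv_left
  refine ⟨Φ, ?_, (l 15 (by norm_num) (by norm_num)).trans e, fun z hz => ?_, ?_, fun s hs c => ?_, ?_⟩
  · rw [← MonoidHom.ker_eq_bot_iff]
    by_cases h : Φ.ker ≤ Co3.G.θ.range
    · refine eq_bot_iff.mpr fun x hx => ?_
      obtain ⟨p, rfl⟩ := h hx
      have : p = 1 := hi (by rw [← f1, map_one]; exact hx)
      rw [this, map_one]
      exact one_mem _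
    · exfalso
      have h1 : Co3.G.θ.range ⊔ Φ.ker = ⊤ := (Co3.G.coatom hc).2 _ (left_lt_sup.mpr h)
      have h2 : Co3.G.θ.range ⊔ Φ.ker ≤ θ.range.comap Φ := sup_le
        (by rintro _ ⟨p, rfl⟩; exact ⟨p, (f1 p).symm⟩)
        fun x hx => ⟨1, by rw [map_one]; exact (MonoidHom.mem_ker.mp hx).symm⟩
      exact f2 (h2 (h1 ▸ Subgroup.mem_top _))
  · obtain ⟨p, rfl⟩ := hC' z (e ▸ Subgroup.mem_centralizer_singleton_iff.mp hz)
    exact ⟨_, f1 p⟩
  · rw [← Nat.card_eq_of_bijective θ0 hb, card]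
  · rcases cls_G hi hC' hs (e ▸ c) with h | h | ⟨c, h⟩ | ⟨c, h⟩
    · exact Or.inl h
    · exact Or.inr (Or.inl (h.trans e))
    · exact Or.inr (Or.inr (Or.inl ⟨_, cm c, by
        rw [inv_inv, h, l 16 (by norm_num) (by norm_num)]⟩))
    · exact Or.inr (Or.inr (Or.inr ⟨_, cm c, by rw [inv_inv, h, f1]⟩))
  · intro h
    obtain ⟨k, hk⟩ := isConj_iff.mp h
    refine not_tv hi hC' k ?_
    rw [← f1, ← hk, e]
    group

omit hi hC in
theorem conj_ty : IsConj (Co3.G.ev 15) (Co3.G.ev 16) ∧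
    IsConj (Co3.G.ev 15) (Co3.G.ev 15 * Co3.G.ev 16) := by
  have h : Rels Co3.G.ev [[32, 15, 32, 17]] := Co3.G.hR.mono (by decide +kernel)
  have h1 := h _ (List.mem_singleton.mpr rfl)
  have a : Co3.G.ev 17 = (Co3.G.ev 16)⁻¹ := Co3.G.hev.inv 16
  have b : Co3.G.ev 32 = (Co3.G.ev 32)⁻¹ := Co3.G.hev.inv 32
  simp only [evL_cons, evL_nil, mul_one, a, ← mul_assoc, mul_inv_eq_one] at h1
  have c : IsConj (Co3.G.ev 15) (Co3.G.ev 16) := isConj_iff.mpr ⟨Co3.G.ev 32, by rw [← b, h1]⟩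
  refine ⟨c, c.trans (isConj_iff.mpr ⟨Co3.G.ev 1, ?_⟩)⟩
  have := congrArg Co3.G.θ (eqB_spec (u := [1, 16, 2]) (w := [15, 16]) (by decide +kernel))
  simp only [evL_cons, evL_nil, mul_one, map_mul, ← mul_assoc] at this
  rw [Co3.G.hθ1 1 (by norm_num) (by norm_num), Co3.G.hθ1 2 (by norm_num) (by norm_num),
    Co3.G.hθ1 15 (by norm_num) (by norm_num), Co3.G.hθ1 16 (by norm_num) (by norm_num)] at this
  rw [← this]
  congr 1
  exact (Co3.G.hev.inv 1).symm

end Cfsg.Co3G
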