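import Cfsg.Agent.Co.E3

/-! The upper bound for the order of `Co₃`: at most 11178 conjugates of the vector fixed by `HS`. -/

set_option autoImplicit false
set_option maxRecDepth 100000

namespace Cfsg.Co3U

open Cfsg.H4.Golay Cfsg.H6 Cfsg.H6.Leech Cfsg.Co Cfsg.Spor

/-- The code words with given weight and given value at the extra point. -/
noncomputable def CW (w b : ℤ) : Finset golayCode :=
  Finset.univ.filter fun c => wt c.1 = w ∧ lf c.1 none = b

theorem mem_CW {w b : ℤ} {c : golayCode} : c ∈ CW w b ↔ wt c.1 = w ∧ lf c.1 none = b := by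
  simp [CW]

theorem card_CW {w b : ℤ} {n : ℕ} (k : cnt (fun p => frcB (fun m =>
    (sm fun i => if m.testBit i then 1 else 0) == w && (if m.testBit 23 then 1 else 0 : ℤ) == b)
      (xv rb p 12)) 4096 = n) : (CW w b).card = n := by
  have h := card_filter_code fun c => wt c.1 = w ∧ lf c.1 none = b
  rw [cnt_eq] at k
  refine h.trans (Eq.trans (congrArg Finset.card (Finset.filter_congr fun p _ => ?_)) k)
  rw [frcB_eq, Bool.and_eq_true, beq_iff_eq, beq_iff_eq, ← wt_wd]
  exact and_congr Iff.rfl (by rw [show (cwN p).1 = wd (xv rb p 12) from rfl, lf_wd]; exact Iff.rfl)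

theorem c80 : (CW 8 0).card = 506 := card_CW (by decide +kernel)
theorem c81 : (CW 8 1).card = 253 := card_CW (by decide +kernel)
theorem c121 : (CW 12 1).card = 1288 := card_CW (by decide +kernel)

theorem mem_supp {c : GolayPt → ZMod 2} {i : GolayPt} : i ∈ support₂ c ↔ lf c i = 1 := by
  unfold lf
  simp only [support₂, Finset.mem_filter, Finset.mem_univ, true_and]
  split_ifs with h <;> simp [h]

theorem card_supp {w : ℕ} {b : ℤ} {c : golayCode} (h : c ∈ CW w b) : (support₂ c.1).card = w := by
  have := (mem_CW.mp h).1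
  rw [wt_eq_card] at this
  exact_mod_cast this

/-- The five shapes. -/
def fA (j : GolayPt) : GolayPt → ℤ := fun i => if i = none then 4 else if i = j then -4 else 0
def fB (c : golayCode) (P : Finset GolayPt) : GolayPt → ℤ :=
  fun i => 2 * lf c.1 i - if i ∈ P then 4 else 0
def fC (c : golayCode) (j : GolayPt) : GolayPt → ℤ := fun i => sg c.1 i * if i = j then -3 else 1

theorem split (f : GolayPt → ℤ) (j : GolayPt) : ∑ i, f i = f j + ∑ i ∈ Finset.univ.erase j, f i :=
  (Finset.add_sum_erase _ _ (Finset.mem_univ j)).symm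

theorem cls {z : leechLattice} (h1 : sqNorm z.1 = 32) (h2 : dotInt z.1 vecV = -16) :
    (∃ j ∈ Finset.univ.erase (none : GolayPt), z.1 = fA j) ∨ (∃ c ∈ CW 8 0, z.1 = fB c ∅) ∨
    (∃ c ∈ CW 8 1, ∃ P ∈ Finset.powersetCard 2 ((support₂ c.1).erase (none : GolayPt)), z.1 = fB c P) ∨
    (∃ c ∈ CW 8 0, ∃ j ∈ support₂ c.1, z.1 = fC c j) ∨ ∃ c ∈ CW 12 1, z.1 = fC c none := by
  have e : 4 * z.1 none + ∑ i, z.1 i = 16 := by
    rw [dotInt, Finset.sum_congr rfl (g := fun i => -z.1 i - if i = none then 4 * z.1 i else 0)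
      fun i _ => by unfold vecV; split_ifs <;> ring] at h2
    simp only [Finset.sum_sub_distrib, Finset.sum_neg_distrib, Finset.sum_ite_eq',
      Finset.mem_univ, if_true] at h2
    omega
  unfold sqNorm at h1
  rcases types z.2 with ⟨c, hc, k, -⟩ | ⟨c, hc, k, -⟩
  · have n1 : ∀ i ∈ Finset.univ, 0 ≤ z.1 i ^ 2 - 4 * lf c i := fun i _ => by
      have a := k i
      rcases lf_cases c i with b | b <;> rw [b] at a ⊢
      · nlinarith [sq_nonneg (z.1 i)]
      · rcases le_or_gt (z.1 i) 0 with d | d
        · have : z.1 i ≤ -2 := by omega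
          nlinarith
        · have : 2 ≤ z.1 i := by omega
          nlinarith
    have n2 : ∑ i, (z.1 i ^ 2 - 4 * lf c i) = 32 - 4 * wt c := by
      rw [Finset.sum_sub_distrib, ← Finset.mul_sum, h1, wt]
    have n3 := Finset.sum_nonneg n1
    rcases wt_cases hc with w | w | w | w | w
    · left
      have k' : ∀ i, z.1 i % 4 = 0 := fun i => by rw [k, lf_of_wt_zero w, mul_zero]
      have n4 : ∀ i ∈ Finset.univ.erase (none : GolayPt), 4 * z.1 i ≤ z.1 i ^ 2 := fun i _ => by
        have := k' i
        rcases le_or_gt (z.1 i) 0 with d | d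
        · nlinarith
        · have : 4 ≤ z.1 i := by omega
          nlinarith
      have n5 := Finset.sum_le_sum n4
      rw [split _ none] at e h1
      rw [← Finset.mul_sum] at n5
      have n6 : 0 ≤ ∑ i ∈ Finset.univ.erase (none : GolayPt), z.1 i ^ 2 := Finset.sum_nonneg fun i _ => sq_nonneg _
      have n7 : z.1 none = 4 := by
        have := k' none
        have : 1 ≤ z.1 none := by nlinarith
        have : z.1 none ≤ 5 := by nlinarith
        omega
      rw [n7] at e h1
      obtain ⟨j, hj, n8⟩ : ∃ j ∈ Finset.univ.erase (none : GolayPt), z.1 j < 0 := by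
        by_contra hn
        push Not at hn
        have := Finset.sum_nonneg hn
        linarith
      rw [← Finset.add_sum_erase _ _ hj] at h1
      have n9 : ∀ i ∈ (Finset.univ.erase (none : GolayPt)).erase j, 0 ≤ z.1 i ^ 2 := fun i _ => sq_nonneg _
      have n10 := Finset.sum_nonneg n9
      have n11 : z.1 j = -4 := by
        have := k' j
        have : -5 ≤ z.1 j := by nlinarith
        omega
      rw [n11] at h1
      have n12 := (Finset.sum_eq_zero_iff_of_nonneg n9).mp (by omega)
      refine ⟨j, hj, funext fun i => ?_⟩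
      unfold fA
      split_ifs with a b
      · rw [a, n7]
      · rw [b, n11]
      · exact pow_eq_zero_iff two_ne_zero |>.mp (n12 i (by simp [a, b]))
    · have n4 := (Finset.sum_eq_zero_iff_of_nonneg n1).mp (by omega)
      have n5 : ∀ i, (lf c i = 0 ∧ z.1 i = 0) ∨ (lf c i = 1 ∧ (z.1 i = 2 ∨ z.1 i = -2)) := fun i => by
        have a := n4 i (Finset.mem_univ i)
        rcases lf_cases c i with b | b <;> rw [b] at a
        · exact Or.inl ⟨b, pow_eq_zero_iff two_ne_zero |>.mp (by omega)⟩
        · refine Or.inr ⟨b, ?_⟩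
          have : (z.1 i - 2) * (z.1 i + 2) = 0 := by linear_combination a
          rcases mul_eq_zero.mp this with d | d <;> omega
      let P := Finset.univ.filter fun i => z.1 i < 0
      have n6 : z.1 = fB ⟨c, hc⟩ P := funext fun i => by
        have := n5 i
        simp only [fB, P, Finset.mem_filter, Finset.mem_univ, true_and]
        split_ifs <;> omega
      have n7 : ∑ i, z.1 i = 16 - 4 * P.card := by
        rw [n6]
        simp only [fB, Finset.sum_sub_distrib, ← Finset.mul_sum, Finset.sum_ite_mem,
          Finset.univ_inter, Finset.sum_const]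
        rw [show ∑ i, lf c i = wt c from rfl, w]
        simp [mul_comm]
      rcases n5 none with ⟨a, b⟩ | ⟨a, b⟩
      · refine Or.inr (Or.inl ⟨⟨c, hc⟩, mem_CW.mpr ⟨w, a⟩, ?_⟩)
        rw [n6, Finset.card_eq_zero.mp (by omega : P.card = 0)]
      · refine Or.inr (Or.inr (Or.inl ⟨⟨c, hc⟩, mem_CW.mpr ⟨w, a⟩, P, ?_, n6⟩))
        refine Finset.mem_powersetCard.mpr ⟨fun i hi => ?_, by omega⟩
        have d : z.1 i < 0 := (Finset.mem_filter.mp hi).2
        refine Finset.mem_erase.mpr ⟨?_, mem_supp.mpr ?_⟩
        · rintro rfl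
          omega
        · have := n5 i
          show lf c i = 1
          omega
    · omega
    · omega
    · omega
  · have k' : ∀ i, (sg c i * z.1 i) % 4 = 1 := fun i => by
      have := k i
      unfold sg
      rcases lf_cases c i with b | b <;> rw [b] at this ⊢ <;> omega
    have q : ∀ i, (sg c i * z.1 i) ^ 2 = z.1 i ^ 2 := fun i => by
      rw [mul_pow, sq (sg c i), sg_mul_self, one_mul]
    have n1 : ∀ i, 0 ≤ z.1 i ^ 2 - 1 := fun i => by
      have a := k i
      have : z.1 i ≠ 0 := by omega
      have := (one_le_sq_iff_one_le_abs _).mpr (Int.one_le_abs this)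
      omega
    have n2 : ∑ i, (z.1 i ^ 2 - 1) = 8 := by
      rw [Finset.sum_sub_distrib, h1, sum_one]
      rfl
    obtain ⟨j, n3⟩ : ∃ j, z.1 j ^ 2 - 1 ≠ 0 := by
      by_contra hn
      push Not at hn
      simp [hn] at n2
    rw [split _ j] at n2
    have n4 : 0 ≤ ∑ i ∈ Finset.univ.erase j, (z.1 i ^ 2 - 1) := Finset.sum_nonneg fun i _ => n1 i
    have n5 : sg c j * z.1 j = -3 := by
      have a := k' j
      rw [← q] at n2 n3
      generalize sg c j * z.1 j = y at *
      have : -3 ≤ y := by nlinarith
      have : y ≤ 3 := by nlinarith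
      have : y ≠ 1 := by
        rintro rfl
        exact n3 rfl
      omega
    rw [← q j, n5] at n2
    have n6 := (Finset.sum_eq_zero_iff_of_nonneg fun i _ => n1 i).mp
      (by omega : ∑ i ∈ Finset.univ.erase j, (z.1 i ^ 2 - 1) = 0)
    have n7 : z.1 = fC ⟨c, hc⟩ j := funext fun i => by
      have a : z.1 i = sg c i * (sg c i * z.1 i) := by rw [← mul_assoc, sg_mul_self, one_mul]
      rw [a]
      unfold fC
      split_ifs with b
      · rw [b, n5]
      · have d := n6 i (by simp [b])
        rw [← q] at d
        have f := k' i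
        generalize sg c i * z.1 i = y at *
        have : (y - 1) * (y + 1) = 0 := by linear_combination d
        rcases mul_eq_zero.mp this with d | d
        · rw [show y = 1 by omega]
        · omega
    have n8 : ∑ i, z.1 i = 24 - 2 * wt c - 4 * sg c j := by
      rw [n7, Finset.sum_congr rfl (g := fun i => 1 - 2 * lf c i - if i = j then 4 * sg c i else 0)
        fun i _ => by simp only [fC, sg]; split_ifs <;> ring]
      simp only [Finset.sum_sub_distrib, Finset.sum_ite_eq', Finset.mem_univ, if_true, sum_one,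
        ← Finset.mul_sum]
      rfl
    have n9 : z.1 none = sg c none * if none = j then -3 else 1 := congrFun n7 none
    have a1 := lf_cases c none
    have a2 := lf_cases c j
    refine Or.inr (Or.inr (Or.inr ?_))
    by_cases b : none = j
    · subst b
      rw [if_pos rfl] at n9
      unfold sg at n8 n9
      rcases wt_cases hc with w | w | w | w | w
      · have := lf_of_wt_zero w none
        omega
      · omega
      · exact Or.inr ⟨⟨c, hc⟩, mem_CW.mpr ⟨w, by show lf c none = 1; omega⟩, n7⟩
      · omega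
      · omega
    · rw [if_neg b] at n9
      unfold sg at n8 n9
      rcases wt_cases hc with w | w | w | w | w
      · have := lf_of_wt_zero w none
        omega
      · exact Or.inl ⟨⟨c, hc⟩, mem_CW.mpr ⟨w, by show lf c none = 0; omega⟩, j,
          mem_supp.mpr (by show lf c j = 1; omega), n7⟩
      · omega
      · omega
      · omega

open Classical in
/-- All candidates. -/
noncomputable def FF : Finset (GolayPt → ℤ) :=
  (Finset.univ.erase (none : GolayPt)).image fA ∪ ((CW 8 0).image fun c => fB c ∅) ∪
    (((CW 8 1).sigma fun c => Finset.powersetCard 2 ((support₂ c.1).erase (none : GolayPt))).image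
      fun x => fB x.1 x.2) ∪
    (((CW 8 0).sigma fun c => support₂ c.1).image fun x => fC x.1 x.2) ∪
    ((CW 12 1).image fun c => fC c none)

theorem card_FF : FF.card ≤ 11178 := by
  have a1 : (Finset.univ.erase (none : GolayPt)).card = 23 := by decide +kernel
  have a2 : ((CW 8 1).sigma fun c => Finset.powersetCard 2 ((support₂ c.1).erase (none : GolayPt))).card =
      253 * 21 := by
    rw [Finset.card_sigma, Finset.sum_congr rfl (g := fun _ => 21), Finset.sum_const, c81, smul_eq_mul]
    intro c hc
    rw [Finset.card_powersetCard, Finset.card_erase_of_mem (mem_supp.mpr (mem_CW.mp hc).2),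
      card_supp (w := 8) hc]
    rfl
  have a3 : ((CW 8 0).sigma fun c => support₂ c.1).card = 506 * 8 := by
    rw [Finset.card_sigma, Finset.sum_congr rfl (g := fun _ => 8), Finset.sum_const, c80, smul_eq_mul]
    intro c hc
    exact card_supp (w := 8) hc
  unfold FF
  refine (Finset.card_union_le _ _).trans ((Nat.add_le_add ((Finset.card_union_le _ _).trans
    (Nat.add_le_add ((Finset.card_union_le _ _).trans (Nat.add_le_add
      ((Finset.card_union_le _ _).trans (Nat.add_le_add Finset.card_image_le Finset.card_image_le))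
      Finset.card_image_le)) Finset.card_image_le)) Finset.card_image_le).trans ?_)
  rw [a1, a2, a3, c80, c121]

theorem mem_FF {z : leechLattice} (h1 : sqNorm z.1 = 32) (h2 : dotInt z.1 vecV = -16) : z.1 ∈ FF := by
  unfold FF
  simp only [Finset.mem_union, Finset.mem_image, Finset.mem_sigma]
  rcases cls h1 h2 with ⟨j, a, e⟩ | ⟨c, a, e⟩ | ⟨c, a, P, b, e⟩ | ⟨c, a, j, b, e⟩ | ⟨c, a, e⟩
  · exact Or.inl (Or.inl (Or.inl (Or.inl ⟨j, a, e.symm⟩)))
  · exact Or.inl (Or.inl (Or.inl (Or.inr ⟨c, a, e.symm⟩)))
  · exact Or.inl (Or.inl (Or.inr ⟨⟨c, P⟩, ⟨a, b⟩, e.symm⟩))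
  · exact Or.inl (Or.inr ⟨⟨c, j⟩, ⟨a, b⟩, e.symm⟩)
  · exact Or.inr ⟨c, a, e.symm⟩

theorem card_Co3_le : Nat.card Co3 ≤ 495766656000 := by
  have h1 : Subtype.val '' orb Co3.subtype (fixS Co3.subtype []) leechU' ⊆ (FF : Set _) := by
    rintro _ ⟨_, ⟨g, _, rfl⟩, rfl⟩
    have hg := Co3.inv_mem g.2
    have hv : g.1⁻¹ leechV = leechV := hg.2
    refine mem_FF ?_ ?_
    · exact (hg.1.2 leechU').trans (by decide +kernel)
    · have := dot_map hg.1 leechU' leechV
      rw [hv] at this
      exact this.trans (by decide +kernel)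
  have h2 := Set.ncard_le_ncard h1 (Finset.finite_toSet _)
  rw [Set.ncard_image_of_injective _ Subtype.val_injective, Set.ncard_coe_finset] at h2
  have h3 := card_fixS_cons Co3.subtype leechU' []
  have h4 : Nat.card (fixS Co3.subtype [leechU']) ≤ 44352000 := by
    have := card_HS.1
    refine le_trans (Nat.card_le_card_of_injective (β := HS)
      (fun g => ⟨g.1.1, g.1.2, g.2 _ List.mem_cons_self⟩) fun g h e => ?_) card_HS.2
    exact Subtype.ext (Subtype.ext (congrArg (fun x : HS => x.1) e))
  rw [fixS_nil, Subgroup.card_top] at h3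
  rw [fixS_nil] at h2
  rw [h3]
  exact Nat.mul_le_mul (h2.trans card_FF) h4

end Cfsg.Co3U
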